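import Mathlib

/-! A non-split extension `3 . Aut B` contains a perfect subgroup `3 . B` of index two. -/

set_option autoImplicit false

namespace Cfsg.Agent.J4U

open Subgroup
open scoped commutatorElement

theorem between {H : Type*} [Group H] {Q N X : Subgroup H} (h3 : Q.relIndex N = 3) (h1 : Q ≤ X) (h2 : X ≤ N) :
    X = Q ∨ X = N := by
  have := relIndex_mul_relIndex Q X N h1 h2
  rw [h3] at this
  rcases (Nat.dvd_prime Nat.prime_three).1 (Dvd.intro _ this) with e | e
  · exact .inl (le_antisymm (relIndex_eq_one.1 e) h1)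
  · rw [e] at this
    exact .inr (le_antisymm h2 (relIndex_eq_one.1 (by omega)))

theorem red {H B : Type*} [Group H] [Finite H] [Group B] [IsSimpleGroup B] (hz : center B = ⊥)
    (hA : Nat.card (MulAut B) = 2 * Nat.card B) {Q N : Subgroup H} [Q.Normal] [N.Normal] (hQN : Q ≤ N)
    (hN : Nat.card N = 3 * Nat.card Q) (hns : ∀ K : Subgroup H, K ⊓ N = Q → K ⊔ N = ⊤ → False)
    (u : H ⧸ N ≃* MulAut B) : ∃ (M : Subgroup H) (_ : M.Normal), N ≤ M ∧ M.index = 2 ∧ ⁅M, N⁆ ≤ Q ∧
      M ≤ ⁅M, M⁆ ⊔ Q ∧ (∀ c : H, (∀ m ∈ M, c * m * c⁻¹ * m⁻¹ ∈ N) → c ∈ M) ∧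
      Nonempty (M ⧸ N.subgroupOf M ≃* B) := by
  let π : H →* MulAut B := u.toMonoidHom.comp (QuotientGroup.mk' N)
  have k1 : ∀ h, π h = 1 ↔ h ∈ N := fun h => (map_eq_one_iff _ u.injective).trans (QuotientGroup.eq_one_iff _)
  have k2 : Function.Surjective π := u.surjective.comp (QuotientGroup.mk'_surjective _)
  have inj : Function.Injective (MulAut.conj : B →* MulAut B) := (injective_iff_map_eq_one _).2 fun b hb =>
    mem_bot.1 (hz.le (mem_center_iff.2 fun g => (mul_inv_eq_iff_eq_mul.1 (DFunLike.congr_fun hb g)).symm))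
  have cj : ∀ (f : MulAut B) b, f * MulAut.conj b * f⁻¹ = MulAut.conj (f b) := fun f b => by ext; simp
  let I := (MulAut.conj : B →* MulAut B).range
  have nI : I.Normal := ⟨by rintro _ ⟨b, rfl⟩ f; exact ⟨_, (cj f b).symm⟩⟩
  have fA : Finite (MulAut B) := Finite.of_surjective π k2
  have fB : Finite B := Finite.of_injective _ inj
  let M := I.comap π
  have nM : M.Normal := nI.comap π
  have NM : N ≤ M := fun n hn => by rw [mem_comap, (k1 n).2 hn]; exact one_mem _
  have iM : M.index = 2 := by
    rw [index_comap_of_surjective _ k2]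
    have := I.card_mul_index
    rw [hA, ← Nat.card_congr (MonoidHom.ofInjective inj).toEquiv, mul_comm] at this
    exact Nat.eq_of_mul_eq_mul_right Nat.card_pos this
  have r3 : Q.relIndex N = 3 := by
    have := (Q.subgroupOf N).card_mul_index
    rw [hN, Nat.card_congr (subgroupOfEquivOfLe hQN).toEquiv, mul_comm] at this
    exact Nat.eq_of_mul_eq_mul_right Nat.card_pos this
  have pB : commutator B = ⊤ := (Normal.eq_bot_or_eq_top inferInstance).resolve_left fun e => by
    have : center B = ⊤ := eq_top_iff.2 fun g _ => mem_center_iff.2 fun h =>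
      commutatorElement_eq_one_iff_mul_comm.1 (mem_bot.1 (e.le (commutator_mem_commutator (mem_top h) (mem_top g))))
    exact bot_ne_top (hz.symm.trans this)
  have pM : M ≤ ⁅M, M⁆ ⊔ N := by
    have h1 : M.map π = I := map_comap_eq_self_of_surjective k2 I
    have h2 : ⁅I, I⁆ = I := by
      rw [show I = (⊤ : Subgroup B).map MulAut.conj from MonoidHom.range_eq_map _, ← map_commutator,
        ← commutator_def, pB]
    have h3 : π.ker = N := Subgroup.ext k1
    rw [← h3, ← comap_map_eq, map_commutator, h1, h2]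
  have cM : ⁅M, N⁆ ≤ Q := by
    let f := QuotientGroup.mk' Q
    have n1 : (N.map f).Normal := Normal.map inferInstance f (QuotientGroup.mk'_surjective Q)
    have c3 : Nat.card (N.map f) = 3 := by
      rw [← r3, ← relIndex_ker, QuotientGroup.ker_mk']
    have := Fact.mk Nat.prime_three
    have := Fact.mk Nat.prime_two
    have cy : IsCyclic (N.map f) := isCyclic_of_prime_card c3
    have c2 : IsCyclic (MulAut (N.map f)) := isCyclic_of_prime_card (p := 2) (by
      rw [IsCyclic.card_mulAut, c3]; decide)
    let θ := (MulAut.conjNormal (H := N.map f)).comp f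
    have h1 : M ≤ θ.ker := pM.trans (sup_le (commutator_le.2 fun a _ b _ => by
      rw [MonoidHom.mem_ker, map_commutatorElement, commutatorElement_eq_one_iff_mul_comm]
      exact c2.isMulCommutative.is_comm.comm _ _) fun n hn => MulEquiv.ext fun y => Subtype.ext (by
        have := congrArg Subtype.val (cy.isMulCommutative.is_comm.comm ⟨f n, n, hn, rfl⟩ y)
        exact mul_inv_eq_iff_eq_mul.2 this))
    refine commutator_le.2 fun a ha n hn => (QuotientGroup.eq_one_iff _).1 ?_
    have := congrArg Subtype.val (DFunLike.congr_fun (show θ a = 1 from h1 ha) ⟨f n, n, hn, rfl⟩)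
    exact (map_commutatorElement f a n).trans (mul_inv_eq_one.2 this)
  refine ⟨M, nM, NM, iM, cM, ?_, fun c hc => NM ((k1 c).1 (MulEquiv.ext fun b => inj ?_)), ?_⟩
  · let D := ⁅M, M⁆ ⊔ Q
    rcases between r3 (X := D ⊓ N) (le_inf le_sup_right hQN) inf_le_right with e | e
    swap
    · exact pM.trans (sup_le le_sup_left (e.ge.trans inf_le_left))
    exfalso
    have DM : D ≤ M := sup_le (commutator_le_left _ _) (hQN.trans NM)
    have e2 : N ⊔ D = M := le_antisymm (sup_le NM DM) (pM.trans (sup_le (le_sup_left.trans le_sup_right) le_sup_left))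
    have i6 : D.index = 6 := by
      rw [← relIndex_mul_index DM, iM, ← e2, relIndex_sup_right, ← inf_relIndex_right, e, r3]
    have := Fact.mk Nat.prime_two
    obtain ⟨y, hy⟩ := exists_prime_orderOf_dvd_card' (G := H ⧸ D) 2 (by rw [← index_eq_card, i6]; norm_num)
    let K := (zpowers y).comap (QuotientGroup.mk' D)
    have DK : D ≤ K := fun d hd => by
      rw [mem_comap, QuotientGroup.mk'_apply, (QuotientGroup.eq_one_iff d).2 hd]; exact one_mem _
    have i3 : K.index = 3 := by
      rw [index_comap_of_surjective _ (QuotientGroup.mk'_surjective D)]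
      have := (zpowers y).card_mul_index
      rw [Nat.card_zpowers, hy, ← index_eq_card, i6] at this
      omega
    have MK : M ≤ K ⊔ N := e2.ge.trans (sup_le le_sup_right (DK.trans le_sup_left))
    refine hns K ((between r3 (le_inf (le_sup_right.trans DK) hQN) inf_le_right).resolve_right fun e3 => ?_) ?_
    · have := index_dvd_of_le (MK.trans (sup_le le_rfl (e3.ge.trans inf_le_left)))
      rw [i3, iM] at this
      norm_num at this
    · have h1 := index_dvd_of_le MK
      have h2 := index_dvd_of_le (le_sup_left : K ≤ K ⊔ N)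
      rw [iM] at h1
      rw [i3] at h2
      exact index_eq_one.1 (Nat.eq_one_of_dvd_coprimes (by norm_num) h1 h2)
  · obtain ⟨m, hm⟩ := k2 (MulAut.conj b)
    have := (k1 _).2 (hc m ⟨b, hm.symm⟩)
    rw [map_mul, map_mul, map_mul, map_inv, map_inv, hm, cj, mul_inv_eq_one] at this
    exact this
  · have hk : (π.subgroupMap M).ker = N.subgroupOf M := Subgroup.ext fun a => Subtype.ext_iff.trans (k1 _)
    exact ⟨((QuotientGroup.quotientMulEquivOfEq hk.symm).trans (QuotientGroup.quotientKerEquivOfSurjective _
      (π.subgroupMap_surjective M))).trans ((MulEquiv.subgroupCongr (map_comap_eq_self_of_surjective k2 I)).trans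
        (MonoidHom.ofInjective inj).symm)⟩

end Cfsg.Agent.J4U
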