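import Cfsg.Agent.S1646
import Cfsg.Agent.S1265
import Cfsg.Agent.J4U.A0

/-! Coordinates of Janko-four type from two forms of the involution centralizer hypothesis. -/

set_option autoImplicit false
set_option linter.style.haveILetI false
set_option linter.unusedVariables false

namespace Cfsg.Agent.J4U

open Cfsg Cfsg.Agent.LL Cfsg.Agent.LL.U6 Cfsg.Agent.H3 Cfsg.Agent.H10 Subgroup
open scoped Pointwise commutatorElement

theorem jf0 {G : Type*} [Group G] [Finite G] (t : G) (ht : orderOf t = 2) (Q N M : Subgroup (Subgroup.centralizer ({t} : Set G))) [Q.Normal] [N.Normal] [M.Normal] (hQN : Q ≤ N) (hNM : N ≤ M) (hM : M.index = 2) (hQ : Cfsg.IsExtraspecial 2 Q) (hcard : Nat.card Q = 2 ^ 13) (hN : Nat.card N = 3 * Nat.card Q) (hcent : ⁅M, N⁆ ≤ Q) (hperf : M ≤ ⁅M, M⁆ ⊔ Q) (h2c : Subgroup.centralizer (Q : Set (Subgroup.centralizer ({t} : Set G))) ≤ Q) (hout : ∀ c : Subgroup.centralizer ({t} : Set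 G), (∀ m ∈ M, c * m * c⁻¹ * m⁻¹ ∈ N) → c ∈ M) (hM22 : Cfsg.Spor.IsoM22 (M ⧸ N.subgroupOf M)) :
    ¬ IsMulCommutative G ∧ ∃ Q' : Subgroup G, ∃ ρ p, ∃ m : FT t Q' ρ p, ∃ x, JF m x := by
  have t1 : t ≠ 1 := fun e => by simp [e] at ht
  have eq := Q.equivMapOfInjective _ (centralizer ({t} : Set G)).subtype_injective
  have tC : t ∈ centralizer ({t} : Set G) := mem_centralizer_singleton_iff.mpr rfl
  have q2 : ∀ q ∈ Q.map (centralizer ({t} : Set G)).subtype, q * t = t * q := fun q hq =>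
    mem_centralizer_singleton_iff.mp (map_subtype_le _ hq)
  have zQ : t ∈ Q.map (centralizer ({t} : Set G)).subtype :=
    ⟨⟨t, tC⟩, h2c fun q _ => Subtype.ext (mem_centralizer_singleton_iff.mp q.2), rfl⟩
  have xs := xs_of_isExtraspecial (H26.isExtraspecial_congr hQ eq) t1 zQ q2
  have hl : LX (Q.map (centralizer ({t} : Set G)).subtype) t := ⟨xs, fun c hc => xs.zc c
    ⟨⟨c, mem_centralizer_singleton_iff.mpr (hc t zQ).symm⟩, h2c fun q hq => Subtype.ext (hc q ⟨q, hq, rfl⟩), rfl⟩ hc,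
    fun c hc => mem_normalizer_of_conj_mem (by
      rintro _ ⟨q, hq, rfl⟩; exact ⟨_, Normal.conj_mem inferInstance q hq ⟨c, hc⟩, rfl⟩)⟩
  have hc := (Nat.card_congr eq.toEquiv).symm.trans hcard
  have hs : (Q.map (centralizer ({t} : Set G)).subtype).subgroupOf _ = Q :=
    comap_map_eq_self_of_injective (subtype_injective _) Q
  obtain ⟨e⟩ := hM22
  haveI := H16.simple_K22
  haveI := H16.sporM22.symm.isSimpleGroup
  haveI := e.isSimpleGroup
  have c22 : Nat.card Spor.M22 = 443520 := (Nat.card_congr H16.sporM22.toEquiv).symm.trans H16.card_K22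
  obtain ⟨v⟩ := autM22
  obtain ⟨u⟩ := S1646.aut_q hNM hM hout e (by rw [c22]; norm_num) (by rw [c22, Nat.card_congr v.toEquiv, H16.card_L22])
  obtain ⟨⟨x, hx⟩, x1⟩ := exists_prime_orderOf_dvd_card' (G := N) 3 (by rw [hN]; exact Dvd.intro _ rfl)
  replace x1 : orderOf x = 3 := (orderOf_coe _).trans x1
  haveI : Fact (Nat.Prime 7) := ⟨by norm_num⟩
  obtain ⟨⟨y, hy⟩, y1⟩ := exists_prime_orderOf_dvd_card' (G := M) 7 (by
    refine Dvd.dvd.trans ?_ (card_quotient_dvd_card (N.subgroupOf M)); rw [Nat.card_congr e.toEquiv, c22]; norm_num)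
  replace y1 : orderOf y = 7 := (orderOf_coe _).trans y1
  have x3 : x ^ 3 = 1 := x1 ▸ pow_orderOf_eq_one x
  obtain ⟨ρ, p, m, j⟩ := exists_JF' hl hc (N := N) (hs.trans_le hQN) (by rw [hN, hc, hcard]) u hx x3
    (fpf3 hl hc x3 (y1 ▸ pow_orderOf_eq_one y) (fun h => by
      have := orderOf_dvd_natCard (⟨x, hs.le h⟩ : Q)
      rw [Subgroup.orderOf_mk, x1, hcard] at this; norm_num at this) hy
      (fun a ha => ⟨_, hcent (commutator_mem_commutator ha hx), rfl⟩) fun K h1 h2 h3 => S1646.le_of hNM hcent hperf hy (fun h => by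
      have := orderOf_dvd_natCard (⟨y, h⟩ : N)
      rw [Subgroup.orderOf_mk, y1, hN, hcard] at this; norm_num at this) h1 (hs ▸ h2) h3 (hNM hx))
  have hG : ¬ IsMulCommutative G := fun h => let ⟨a, ha, n⟩ := xs.na; n (xs.zc a ha fun q _ => h.is_comm.comm q a)
  exact ⟨hG, _, ρ, p, m, x, j⟩

theorem jf1670 {G : Type*} [Group G] [Finite G] [IsSimpleGroup G] (t : G) (ht : orderOf t = 2) (Q N M : Subgroup (Subgroup.centralizer ({t} : Set G))) [Q.Normal] [N.Normal] [M.Normal] (hQN : Q ≤ N) (hNM : N ≤ M) (hM : M.index = 2) (hQ : Cfsg.IsExtraspecial 2 Q) (hcard : Nat.card Q = 2 ^ 13) (hplus : ∃ E : Subgroup Q, Cfsg.IsElementaryAbelian 2 E ∧ Nat.card E = 2 ^ 7) (hN : Nat.card N = 3 * Nat.card Q) (hcent : ⁅M, N⁆ ≤ Q) (hperf : M ≤ ⁅M, M⁆ ⊔ Q) (h2c : Subgroup.centralizer (Q : Set (Subgroup.centralizer ({t} : Set G))) ≤ Q) (hout : ∀ c : Subgroup.centralizer ({t} : Set G), (∀ m ∈ M, c * m * c⁻¹ * m⁻¹ ∈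 N) → c ∈ M) (hM22 : Cfsg.Spor.IsoM22 (M ⧸ N.subgroupOf M)) (h2cen : Cfsg.IsTwoCentralInvolution t) :
    ¬ IsMulCommutative G ∧ ∃ Q' : Subgroup G, ∃ ρ p, ∃ m : FT t Q' ρ p, ∃ x, JF m x :=
  jf0 t ht Q N M hQN hNM hM hQ hcard hN hcent hperf h2c hout hM22

theorem jf5585 {G : Type*} [Group G] [Finite G] [IsSimpleGroup G] (hG : ¬ IsMulCommutative G) (τ : G) (Q N : Subgroup ↥(Subgroup.centralizer ({τ} : Set G))) [Q.Normal] [N.Normal] (hS : Cfsg.IsExtraspecialCentralizerSetting τ Q 6) (hplus : ∃ E : Subgroup ↥Q, Cfsg.IsElementaryAbelian 2 E ∧ Nat.card ↥E = 2 ^ 7) (hQN : Q ≤ N) (hN3 : Nat.card ↥N = 3 * Nat.card ↥Q) (hns : ∀ K : Subgroup ↥(Subgroup.centralizer ({τ} : Set G)), K ⊓ N = Q → K ⊔ N = ⊤ → False) (hAut : Nonempty (↥(Subgroup.centralizer ({τ} : Set G)) ⧸ N ≃* MulAut ↥Cfsg.Spor.M22)) :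
    ∃ Q' : Subgroup G, ∃ ρ p, ∃ m : FT τ Q' ρ p, ∃ x, JF m x := by
  obtain ⟨ht, hF, hQ, hc, -⟩ := hS
  obtain ⟨u⟩ := hAut
  haveI := H16.simple_K22
  haveI := H16.sporM22.symm.isSimpleGroup
  have c22 : Nat.card Spor.M22 = 443520 := (Nat.card_congr H16.sporM22.toEquiv).symm.trans H16.card_K22
  obtain ⟨v⟩ := autM22
  obtain ⟨M, _, h1, h2, h3, h4, h5, h6⟩ := red (H16.center_eq_bot_of_simple (B := Spor.M22) (by rw [c22]; norm_num))
    (by rw [c22, Nat.card_congr v.toEquiv, H16.card_L22]) hQN hN3 hns u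
  exact (jf0 τ ht Q N M hQN h1 h2 hQ hc hN3 h3 h4 (hF ▸ S1265.result) h5 h6).2

end Cfsg.Agent.J4U
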