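import Cfsg.Agent.J4U.B1
import Cfsg.Agent.H27.JB3

/-! The rank seven action, from an isomorphism with the presented group. -/

set_option autoImplicit false

namespace Cfsg.Agent.LL

open Cfsg Subgroup MulAction

namespace U6

theorem JF.jb5629 {G : Type*} [Group G] [Finite G] {z : G} {Q : Subgroup G} {ρ : centralizer ({z} : Set G) →* Γ}
    {p : G → V6} {m : FT z Q ρ p} {x : centralizer ({z} : Set G)} (j : JF m x) (e : G ≃* Spor.J4) (V : Subgroup G)
    (hV : IsElementaryAbelian 2 V) (hc : Nat.card V = 2 ^ 11) :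
    (Subgroup.normalizer (V : Set G)).index = 173067389 ∧ ∃ c : Fin 7 → G ⧸ Subgroup.normalizer (V : Set G), (∀ i j : Fin 7, i ≠ j → MulAction.orbit ↥(Subgroup.normalizer (V : Set G)) (c i) ≠ MulAction.orbit ↥(Subgroup.normalizer (V : Set G)) (c j)) ∧ (∀ q : G ⧸ Subgroup.normalizer (V : Set G), ∃ i : Fin 7, q ∈ MulAction.orbit ↥(Subgroup.normalizer (V : Set G)) (c i)) ∧ (List.ofFn fun i => (MulAction.orbit ↥(Subgroup.normalizer (V : Set G)) (c i)).ncard) = [1, 15180, 28336, 3400320, 32643072, 54405120, 82575360] :=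
  j.u11.jb (e.trans H17.JB3.iso) V hV hc

end U6

end Cfsg.Agent.LL
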