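import Mathlib

/-! Orbits of a subgroup on its cosets from a counted double coset cover. -/

set_option autoImplicit false

namespace Cfsg.Agent.J4U.B

open MulAction

variable {G : Type*} [Group G]

/-- the double coset `N a N` -/
def dc (N : Subgroup G) (a : G) : Set G := {x | ∃ h1 ∈ N, ∃ h2 ∈ N, x = h1 * a * h2}

theorem dc_eq (N : Subgroup G) (a : G) :
    dc N a = QuotientGroup.mk ⁻¹' orbit N (a : G ⧸ N) := by
  ext x
  constructor
  · rintro ⟨h1, m1, h2, m2, rfl⟩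
    refine ⟨⟨h1, m1⟩, ?_⟩
    change ((h1 * a : G) : G ⧸ N) = ((h1 * a * h2 : G) : G ⧸ N)
    rw [QuotientGroup.eq]
    simpa [mul_assoc] using m2
  · rintro ⟨⟨h1, m1⟩, e⟩
    change ((h1 * a : G) : G ⧸ N) = ((x : G) : G ⧸ N) at e
    rw [QuotientGroup.eq] at e
    exact ⟨h1, m1, _, e, by group⟩

theorem ncard_dc (N : Subgroup G) (a : G) :
    (dc N a).ncard = Nat.card N * (orbit N (a : G ⧸ N)).ncard := by
  rw [dc_eq, ← Nat.card_coe_set_eq, QuotientGroup.card_preimage_mk, Nat.card_coe_set_eq]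

theorem orb [Finite G] (N : Subgroup G) {ι : Type} [Fintype ι] (a : ι → G) (n : ι → ℕ)
    (hf : ∀ j, (dc N (a j)).ncard ≤ n j * Nat.card N) (hc : ∀ x, ∃ j, x ∈ dc N (a j))
    (hG : Nat.card G = (∑ j, n j) * Nat.card N) :
    N.index = ∑ j, n j ∧ (∀ q : G ⧸ N, ∃ i, q ∈ orbit N (a i : G ⧸ N)) ∧
      ∀ i, (orbit N (a i : G ⧸ N)).ncard = n i := by
  have hp : 0 < Nat.card N := Nat.card_pos
  have h1 : N.index = ∑ j, n j := by
    have := N.index_mul_card
    rw [hG] at this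
    exact Nat.eq_of_mul_eq_mul_right hp this
  have h2 : ∀ q : G ⧸ N, ∃ i, q ∈ orbit N (a i : G ⧸ N) := fun q => by
    obtain ⟨x, rfl⟩ := QuotientGroup.mk_surjective q
    obtain ⟨j, hj⟩ := hc x
    rw [dc_eq] at hj
    exact ⟨j, hj⟩
  have h3 : ∀ i, (orbit N (a i : G ⧸ N)).ncard ≤ n i := fun i => by
    have := hf i
    rw [ncard_dc, mul_comm] at this
    exact Nat.le_of_mul_le_mul_right this hp
  have h4 : ∑ j, n j ≤ ∑ j, (orbit N (a j : G ⧸ N)).ncard := by
    have e : (⋃ j, orbit N (a j : G ⧸ N)) = Set.univ := Set.eq_univ_of_forall fun q => Set.mem_iUnion.mpr (h2 q)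
    have := Set.ncard_iUnion_le_of_fintype fun j => orbit N (a j : G ⧸ N)
    rwa [e, Set.ncard_univ, ← Subgroup.index_eq_card, h1] at this
  refine ⟨h1, h2, fun i => ?_⟩
  exact (Finset.sum_eq_sum_iff_of_le fun j _ => h3 j).mp
    (le_antisymm (Finset.sum_le_sum fun j _ => h3 j) h4) i (Finset.mem_univ i)

theorem dc_comap {Γ : Type*} [Group Γ] (f : G ≃* Γ) (H : Subgroup Γ) (b : Γ) :
    dc (H.comap (f : G →* Γ)) (f.symm b) = f ⁻¹' dc H b := by
  ext x
  constructor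
  · rintro ⟨h1, m1, h2, m2, rfl⟩
    exact ⟨f h1, m1, f h2, m2, by simp⟩
  · rintro ⟨h1, m1, h2, m2, e⟩
    refine ⟨f.symm h1, by simpa using m1, f.symm h2, by simpa using m2, f.injective ?_⟩
    simpa using e

theorem card_comap {Γ : Type*} [Group Γ] (f : G ≃* Γ) (H : Subgroup Γ) :
    Nat.card (H.comap (f : G →* Γ)) = Nat.card H := by
  rw [Subgroup.comap_equiv_eq_map_symm]
  exact Subgroup.card_map_of_injective f.symm.injective

theorem orb' [Finite G] {Γ : Type*} [Group Γ] (f : G ≃* Γ) (H : Subgroup Γ) {N : Subgroup G}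
    (hN : N = H.comap (f : G →* Γ)) {ι : Type} [Fintype ι] (a : ι → Γ) (n : ι → ℕ)
    (hf : ∀ j, (dc H (a j)).ncard ≤ n j * Nat.card H) (hc : ∀ x, ∃ j, x ∈ dc H (a j))
    (hG : Nat.card Γ = (∑ j, n j) * Nat.card H) :
    N.index = ∑ j, n j ∧ (∀ q : G ⧸ N, ∃ i, q ∈ orbit N (f.symm (a i) : G ⧸ N)) ∧
      ∀ i, (orbit N (f.symm (a i) : G ⧸ N)).ncard = n i := by
  subst hN
  refine orb _ (fun i => f.symm (a i)) n (fun j => ?_) (fun x => ?_) ?_
  · rw [dc_comap, card_comap, Set.ncard_preimage_of_injective_subset_range f.injective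
      (by rw [f.surjective.range_eq]; exact Set.subset_univ _)]
    exact hf j
  · obtain ⟨j, hj⟩ := hc (f x)
    exact ⟨j, by rw [dc_comap]; exact hj⟩
  · rw [card_comap, ← hG]
    exact Nat.card_congr f.toEquiv

end Cfsg.Agent.J4U.B
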