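import Cfsg.Agent.J4U.B0
import Cfsg.Agent.H16.J4S
import Cfsg.Agent.H21.Ja3

/-! The rank seven action on the cosets of the normaliser of an elementary abelian `2 ^ 11`. -/

set_option autoImplicit false
set_option maxRecDepth 100000

namespace Cfsg.Agent.H16.J4G

open H17 J4M MulAction Mdl

theorem jbE_sq : ∀ a ∈ E, a * a = 1 := fun a ha => by
  induction ha using Subgroup.closure_induction with
  | mem a ha =>
    obtain ⟨i, hi, rfl⟩ := mem_lE.mp ha
    exact isOne_spec (MG.R_mul (rE i) (rE i)) (allB_spec sqB i hi)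
  | one => simp
  | mul a b ha hb h1 h2 =>
    calc a * b * (a * b) = a * (b * a) * b := by group
      _ = a * (a * b) * b := by rw [E_comm b hb a ha]
      _ = (a * a) * (b * b) := by group
      _ = 1 := by rw [h1, h2, one_mul]
  | inv a ha h => rw [← mul_inv_rev, h, inv_one]

theorem jbE_card : 2 ^ 11 ≤ Nat.card E := by
  have h1 := cardLe_sup (⟨cardE.1, le_rfl⟩ : CardLe E (Nat.card E)) cardN N_norm
  have h2 := Subgroup.card_le_of_le H_le
  have h3 := h1.2
  rw [cardH] at h2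
  omega

theorem jbE_norm : Subgroup.normalizer (E : Set Γ) = H := by
  rcases H_max _ H_norm with h | h
  · exact h
  · have h1 := E_gen E (Subgroup.normalizer_eq_top_iff.mp h) le_rfl
    have h2 := cardE.2
    rw [h1, Subgroup.card_top, cardΓ] at h2
    omega

theorem jb_orb {G : Type*} [Group G] [Finite G] (f : G ≃* Γ) {N : Subgroup G} (hN : N = H.comap (f : G →* Γ)) :
    N.index = 173067389 ∧ ∃ c : Fin 7 → G ⧸ N, (∀ i j : Fin 7, i ≠ j → orbit N (c i) ≠ orbit N (c j)) ∧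
      (∀ q : G ⧸ N, ∃ i : Fin 7, q ∈ orbit N (c i)) ∧
      (List.ofFn fun i => (orbit N (c i)).ncard) = [1, 15180, 28336, 3400320, 32643072, 54405120, 82575360] := by
  obtain ⟨h1, h2, h3⟩ := J4U.B.orb' f H hN (fun j : Fin 7 => hG j) nn (fun j => cardH ▸ (dcs_le j).2) cover
    (by rw [cardΓ, sum_nn, cardH])
  let σ : Fin 7 → Fin 7 := ![0, 1, 6, 3, 2, 5, 4]
  have s1 : ∀ i j : Fin 7, nn (σ i) = nn (σ j) → i = j := by decide
  have s2 : ∀ j : Fin 7, ∃ i, σ i = j := by decide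
  have s3 : (List.ofFn fun i => nn (σ i)) = [1, 15180, 28336, 3400320, 32643072, 54405120, 82575360] := by decide
  refine ⟨h1.trans sum_nn, fun i => (f.symm (hG (σ i)) : G ⧸ N), fun i j hij e => hij (s1 i j ?_), fun q => ?_, ?_⟩
  · rw [← h3, ← h3]
    exact congrArg Set.ncard e
  · obtain ⟨j, hj⟩ := h2 q
    obtain ⟨i, rfl⟩ := s2 j
    exact ⟨i, hj⟩
  · rw [← s3]
    exact congrArg List.ofFn (funext fun i => h3 (σ i))

end Cfsg.Agent.H16.J4G

namespace Cfsg.Agent.LL

open Cfsg Subgroup MulAction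
open scoped Pointwise

theorem U11.jb {G : Type*} [Group G] [Finite G] {A : Subgroup G} (u : U11 A) (f0 : G ≃* H16.J4G.Γ) (V : Subgroup G)
    (hV : IsElementaryAbelian 2 V) (hc : Nat.card V = 2 ^ 11) :
    (Subgroup.normalizer (V : Set G)).index = 173067389 ∧ ∃ c : Fin 7 → G ⧸ Subgroup.normalizer (V : Set G), (∀ i j : Fin 7, i ≠ j → MulAction.orbit ↥(Subgroup.normalizer (V : Set G)) (c i) ≠ MulAction.orbit ↥(Subgroup.normalizer (V : Set G)) (c j)) ∧ (∀ q : G ⧸ Subgroup.normalizer (V : Set G), ∃ i : Fin 7, q ∈ MulAction.orbit ↥(Subgroup.normalizer (V : Set G)) (c i)) ∧ (List.ofFn fun i => (MulAction.orbit ↥(Subgroup.normalizer (V : Set G)) (c i)).ncard) = [1, 15180, 28336, 3400320, 32643072, 54405120, 82575360] := by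
  obtain ⟨g1, e1⟩ := u.exists_eq (B := V) (fun b hb => (pow_two b).symm.trans (hV.2 b hb)) hc.ge
  obtain ⟨g2, e2⟩ := u.exists_eq (B := H16.J4G.E.comap (f0 : G →* H16.J4G.Γ))
    (fun b hb => f0.injective (by rw [map_mul, map_one]; exact H16.J4G.jbE_sq _ hb))
    (by rw [J4U.B.card_comap]; exact H16.J4G.jbE_card)
  let f : G ≃* H16.J4G.Γ := (MulAut.conj (g2 * g1⁻¹)).trans f0
  have hf : V = H16.J4G.E.comap (f : G →* H16.J4G.Γ) := by
    ext a
    change a ∈ V ↔ MulAut.conj (g2 * g1⁻¹) a ∈ H16.J4G.E.comap (f0 : G →* H16.J4G.Γ)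
    rw [e1, e2, mem_pointwise_smul_iff_inv_smul_mem, mem_pointwise_smul_iff_inv_smul_mem]
    simp [mul_assoc]
  refine H16.J4G.jb_orb f ?_
  rw [← H16.J4G.jbE_norm, comap_normalizer_eq_of_surjective _ f.surjective, hf]

end Cfsg.Agent.LL
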